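import Mathlib
import Cfsg.Agent.Lang.Invol

/-! Certificates for the involutions of type F4. -/

set_option autoImplicit false

namespace Cfsg.Agent.Lang

open Cfsg.Lie Cfsg.Agent.Chev

/-- The chain of root stabilisers. -/
def invF4a : List Lev :=
  [⟨39, 0xeee3c7e3c777, 0xe200004700, [24, 25, 30, 33], [(3, 0x111c381c3888, -1, 8)], [7, 6, 5, 4, 3, 2, 1, 0]⟩,
   ⟨38, 0x2662c1834664, 0x6200004600, [24, 30, 33], [(0, 0x608113, -2, 1)], [5, 4, 3, 2, 1, 0]⟩,
   ⟨37, 0x22240024440, 0x2200004400, [30, 33], [(3, 0x40888, -1, 2)], [3, 2, 1, 0]⟩,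
   ⟨33, 0x200004000, 0x200004000, [33], [], [1, 0]⟩]

theorem invF4a_chk : chkAll encF4 (bitv 1) 2 invF4a [] = true := by decide +kernel

theorem invF4a_cnt : cntN encF4.n (fun r => Nat.ble (encF4.n / 2) r &&
    isZ (evE encF4 (bitv 1) r % 2)) = 16 := by decide +kernel

/-- The chain of root stabilisers. -/
def invF4b : List Lev :=
  [⟨25, 0x933262464cc9, 0x2400000, [25, 29, 30, 33], [(0, 0x933262464cc9, -1, 0)], [1, 0]⟩,
   ⟨47, 0x933260064cc9, 0x820040020041, [29, 30, 33], [(1, 0x244489289112, -2, 0)], [5, 4, 3, 2, 1, 0]⟩,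
   ⟨37, 0x22240024440, 0x2200004400, [30, 33], [(3, 0x40888, -1, 2)], [3, 2, 1, 0]⟩,
   ⟨33, 0x200004000, 0x200004000, [33], [], [1, 0]⟩]

theorem invF4b_chk : chkAll encF4 (bitv 4) 2 invF4b [] = true := by decide +kernel

theorem invF4b_cnt : cntN encF4.n (fun r => Nat.ble (encF4.n / 2) r &&
    isZ (evE encF4 (bitv 4) r % 2)) = 10 := by decide +kernel

theorem invF4_orb : chkOrb encF4 1 4
    0x3323221201301000
    0x70609040f0e0b0c06040d0001030000
    0x3020601040305020201070001020000 = true := by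
  decide +kernel

end Cfsg.Agent.Lang
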